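import Cfsg.Agent.Mult.Slices
import Cfsg.Agent.J3C.Tabs2

set_option autoImplicit false
set_option Elab.async false
set_option maxRecDepth 100000
set_option linter.all false

namespace Cfsg.Agent.J3C
open Cfsg.Agent.CGT

open Cfsg.Agent.Mult

noncomputable def u2_D : PC := ⟨2, 7, 2, 19,
  [[0, 0x1404, 0x50, 0x1040, 0x500, 0x400, 0x1000], [0, 0x1400, 0x110, 0x440, 0x100, 0x400, 0x1000], [0, 0, 0x540, 0x440, 0x1500, 0x1400, 0x1000], [0, 0, 0, 0x1000, 0x1100, 0x400, 0x1000], [0, 0, 0, 0, 0x1000, 0x400, 0x1000], [0, 0, 0, 0, 0, 0, 0x1000], [0, 0, 0, 0, 0, 0, 0]],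
  [0xff, 0xf, 0x3f, 3, 0, 0, 0],
  [(7, 0x40, 0x55), (7, 0x100, 0x140), (7, 0x400, 0x15), (7, 0x1000, 0x1000), (8, 1, 0x1000), (8, 0x400, 0x1001), (8, 0x1000, 0x544)], 19, 0x40000050302000000000100000000060000⟩
noncomputable def u2_ds : List (List ℕ) := [[10, 8, 6, 8, 2, 10, 2, 0, 10, 8, 4, 2, 10, 2, 0, 6], [2, 0, 4, 2, 4, 8, 10, 2, 8, 0, 10, 2, 8, 6, 8, 2, 10], [8, 10, 2, 10, 0, 2, 4, 8, 10, 2, 10, 0, 8, 0, 2, 4], [8, 0, 6, 8, 6, 10, 2, 4, 8, 2, 4, 10, 2, 8, 0], [2, 4, 10, 2, 8, 2, 6, 8, 6, 4, 10, 8, 2, 8, 6], [6, 0, 2, 4, 8, 10, 2, 8, 6, 8, 10, 2, 0, 8, 2], [6, 2, 8, 10, 2, 8, 6, 8, 10, 2, 4, 0, 8, 2, 10, 6], [4, 10, 2, 10, 0, 2, 4, 8, 4, 0, 10, 2, 8, 2, 10], [6, 8, 4, 8, 2, 4, 2, 10, 2, 8, 0, 10, 2, 8, 0]]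
noncomputable def u2_c : Mult.Cert := ⟨47, 17, [[], [], [], [2], [9], [10], [19]],
  [],
  [[0x90004, 0x1905ff2, 0, 0x1708270, 0x56fd80, 0x12f6000, 0xd0000], [0, 0x895471, 0, 0, 0xeb47d0, 0x1200000, 0x200000], [0, 0, 0x1a3cd6f, 0x1f43d00, 0x885500, 0, 0x1a05000], [0, 0, 0, 0x1790270, 0x1600200, 0x8d2000, 0x800000], [0, 0, 0, 0, 0x14a13d0, 0x500000, 0x400000], [0, 0, 0, 0, 0, 0x12d6000, 0x80000], [0, 0, 0, 0, 0, 0, 0x90000]]⟩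

end Cfsg.Agent.J3C
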