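import Cfsg.Agent.Mult.Slices
import Cfsg.Agent.J3C.Mul2D

set_option autoImplicit false
set_option Elab.async false
set_option maxRecDepth 100000
set_option linter.all false

namespace Cfsg.Agent.J3C
open Cfsg.Agent.CGT

open Cfsg.Agent.Mult

set_option Elab.async false
theorem u2_all : allB u2_D u2_c [.assoc 4 4 4, .assoc 0x40 0x40 0x40, .assoc 0x100 0x100 0x100, .assoc 0x100 0x100 4, .assoc 0x100 4 4, .assoc 0x400 0x40 0x40, .assoc 0x40 1 1, .assoc 0x100 1 1, .assoc 0x400 0x400 0x10, .assoc 0x10 1 1, .assoc 0x40 4 4, .assoc 0x400 0x10 1, .assoc 0x40 0x40 0x10, .assoc 0x10 0x10 0x10, .assoc 0x10 4 4, .assoc 0x40 0x10 4, .assoc 0x10 0x10 4, .assoc 0x10 0x10 1, .fus 7 [1, 1] [3], .fus 7 [2, 1] [1, 2], .fus 7 [1, 0] [0, 1, 3], .fus 7 [0, 0] [3], .fus 8 [4, 4] [], .fus 8 [6, 5] [5, 6], .fus 8 [6, 6] []] 13 n_ts u2_ds [2, 1, 987, 0] [(286, [0x100, 0x10]), (363, [0x140]), (49, [0x1000]), (265, [0x1400]),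 (12, [0x444]), (0, [0x1041])] = true := by decide +kernel

end Cfsg.Agent.J3C
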