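import Cfsg.Agent.Mult.Slices
import Cfsg.Agent.J3C.Tabs2

set_option autoImplicit false
set_option Elab.async false
set_option maxRecDepth 100000
set_option linter.all false

namespace Cfsg.Agent.J3C
open Cfsg.Agent.CGT

open Cfsg.Agent.Mult

noncomputable def u3_D : PC := ⟨3, 5, 2, 26,
  [[0x280, 0x14, 0x50, 0x40, 0x100], [0, 0x240, 0x110, 0x40, 0x100], [0, 0, 0, 0x40, 0x100], [0, 0, 0, 0, 0x100], [0, 0, 0, 0, 0]],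
  [0xf, 3, 0, 0, 0],
  [(5, 1, 0xaa), (5, 4, 0x126), (5, 0x10, 0x90), (5, 0x40, 0x280), (5, 0x100, 0x180)], 11, 0x2020103040100030004⟩
noncomputable def u3_ds : List (List ℕ) := [[2, 10, 4, 2, 10, 6, 8, 2, 10, 0, 2, 8, 4, 2, 0, 10, 2], [6, 8, 0, 4, 2, 6, 10, 2, 8, 0, 10, 2, 0, 10, 2, 10], [10, 6, 2, 4, 2, 10, 8, 6, 8, 2, 4, 10, 2, 0, 10, 2], [2, 10, 2, 0, 4, 8, 6, 10, 2, 8, 0, 10, 2, 0, 4], [2, 8, 6, 2, 8, 10, 2, 10, 0, 4, 8, 2, 4, 8, 0], [8, 4, 2, 10, 8, 0, 2, 8, 10, 0, 6, 8, 2, 8, 6]]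
noncomputable def u3_c : Mult.Cert := ⟨92, 22, [[], [], [1], [2], [7]],
  [([9, 9], 1, 0xf86b88f352)],
  [[0x96b99b, 0, 0, 0xc68bd3, 0x2025bb], [0, 0x1c72d3, 0, 0x1853d4, 1], [0, 0, 0xb1da3a, 0x1cd52, 0x99c6], [0, 0, 0, 0x3342, 0x567f6], [0, 0, 0, 0, 0x1116]]⟩

end Cfsg.Agent.J3C
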