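import Cfsg.Agent.Mult.Slices
import Cfsg.Agent.J3C.Mulc3T0

set_option autoImplicit false
set_option Elab.async false
set_option maxRecDepth 100000
set_option linter.all false

namespace Cfsg.Agent.J3C
open Cfsg.Agent.CGT

open Cfsg.Agent.Mult

theorem mulc3_proj (hR : Holds (lp l0_ns) RR) : Proj (yM 3 l0_ns mulc3_C) (zM 3 mulc3_U) 3 RR mulc3_a :=
  have hq : 3 = 2 ∨ 3 = 3 ∨ 3 = 4 := by decide
  proj_mono hq l0_v hR (MonR.zero.step hq l0_v mulc3_m0) mulc3_i

end Cfsg.Agent.J3C
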